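import Cfsg.Agent.Ngrp.NatJ6
import Cfsg.Agent.Ngrp.NatE
import Cfsg.Agent.Ngrp.NatT2
import Cfsg.Agent.Ngrp.NatS3
import Cfsg.Agent.S1012

/-!
# The trichotomy for groups of characteristic two type with solvable 2-local subgroups
-/

set_option autoImplicit false

namespace Cfsg.Lib.Ngrp
open Subgroup Cfsg.Lib.Trans Cfsg.Lib.Trans.TJ Cfsg.Lib.Local Cfsg.Lib.Local.JC

/-- The conclusion of `z48`. -/
def Z48 (G : Type*) [Group G] : Prop := ∀ (T : Subgroup G) (P : G → Prop), IsPGroup 2 T →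
  (∀ g ∈ normalizer (J T : Set G), ∀ d, P d → P (g * d * g⁻¹)) →
  (∀ d, P d → ∀ L, IsTwoLocal L → J T ≤ L → d ∈ L → ∃ U, IsSylowIn 2 U L ∧ J U = J T) →
  4 ≤ Nat.card (omegaCenterOf (J T)) →
  ∃ D : Subgroup G, IsPGroup 2 D ∧ D ≠ ⊥ ∧ normalizer (J T : Set G) ≤ normalizer (D : Set G) ∧
    ∀ W d, JCd T W d → P d → d ∈ normalizer (D : Set G)

variable {G : Type*} [Group G] [Finite G] {S : Sylow 2 G} {M T W V Y L : Subgroup G} {z d d' : G}

theorem z48_of_index (ah : AH G) (hG : ∀ H : Subgroup G, H.index ≠ 2) : Z48 G :=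
  fun _ _ hT hP hs h4 => z48 ah hG hT hP hs h4

theorem z48_of_no (h : ∀ (T W : Subgroup G) (d : G), IsPGroup 2 T → ¬ JCd T W d) : Z48 G :=
  fun T _ hT _ _ h4 => ⟨J T, hT.to_le (J_le T), fun e => by
    have : omegaCenterOf (J T) = ⊥ := eq_bot_iff.2 ((oc_le _).trans e.le)
    simp [this] at h4, le_rfl, fun W d e _ => absurd e (h T W d hT)⟩

/-- Two four-groups generating a dihedral group of order eight that is a Sylow subgroup of their
normalisers. -/
structure D8 (S : Sylow 2 G) (T W V : Subgroup G) (d d' : G) : Prop where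
  ah : AH G
  le : T ≤ S
  jW : JCd T W d
  jV : JCd T V d'
  ne : W ≠ V
  eq : T = W ⊔ V
  card : Nat.card T = 8
  nc : ¬ W ≤ centralizer (V : Set G)
  nW : T ≤ normalizer (W : Set G)
  nV : T ≤ normalizer (V : Set G)
  sW : ∀ L, IsTwoLocal L → T ≤ L → d ∈ L → IsSylowIn 2 T L
  sV : ∀ L, IsTwoLocal L → T ≤ L → d' ∈ L → IsSylowIn 2 T L

theorem Uq.d8 (h : Uq S M T) (ah : AH G) (hz : Z48 G) :
    ∃ (S : Sylow 2 G) (W V : Subgroup G) (d d' : G), D8 S T W V d d' := by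
  obtain ⟨S, h, hTS⟩ := h.exists_le
  obtain ⟨L, hL, hTL, hLM⟩ := h.max.1.2.2.2
  have hT := h.syl_of_le hL hLM hTL
  have hc := ah.charP hL
  obtain ⟨W, d, hW, hd, hdN, hdM⟩ : ∃ W d, JCd T W d ∧ d ∈ L ∧ d ∈ normalizer
      ((T ⊓ centralizer (largestPReducedOf 2 L : Set G) : Subgroup G) : Set G) ∧ d ∉ M := by
    by_contra hn
    push Not at hn
    refine hLM (je_le (ah.solv L hL) hT (inf_le_right.trans ?_)
      (inf_le_right.trans h.normalizer_J_le) fun W d h1 h2 h3 _ => hn W d h1 h2 h3)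
    have h0 : (S : Subgroup G) ≠ ⊥ := fun e => h.ne_bot (eq_bot_iff.2 (e ▸ hTS))
    refine ((centralizer_le ?_).trans (centralizer_le_normalizer _)).trans
      (h.uq _ (S.isPGroup'.to_le (oc_le _)) (oc_ne_bot S.isPGroup' h0)
        (le_normalizer.trans (normalizer_le_normalizer_oc _)))
    refine fun z hz => MSS.omega_center_le_yOf hc hT (mem_oc.2 ⟨?_, ?_, oc_sq hz⟩ : z ∈ omegaCenterOf T)
    · exact pCoreOf_le_sylowIn hT (ah.cent_le hL
        (centralizer_le ((pCoreOf_le_sylowIn hT).trans hTS) (oc_le_centralizer _ hz)))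
    · exact centralizer_le hTS (oc_le_centralizer _ hz)
  have hlt := h.lt_N hTS
  by_cases h4 : 4 ≤ Nat.card (omegaCenterOf (J T))
  · obtain ⟨D, hD, h0, h1, h2⟩ := hz T (fun d => d ∉ M) h.pg
      (fun g hg d hd e => hd (by
        simpa [mul_assoc] using M.mul_mem (M.mul_mem (M.inv_mem (h.normalizer_J_le hg)) e)
          (h.normalizer_J_le hg)))
      (fun d hd L hL hJ hdL => by
        obtain ⟨U, hU, hJU⟩ := exists_isSylowIn_ge h.J_pg hJ
        exact ⟨U, hU, (h.syl_facts hL (fun e => hd (e hdL)) hU.isPGroup hU.le hJU).1⟩) h4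
    exact absurd (h.syl_facts (isTwoLocal_normalizer hD h0)
      (fun e => hdM (e (h2 W d hW hdM))) (S.isPGroup'.to_le inf_le_left) (inf_le_right.trans h1)
      ((J_le T).trans hlt.le)).2 (card_lt_of_lt hlt).not_ge
  have h2 : Nat.card (omegaCenterOf (J T)) = 2 := by
    have h5 := dvd_card_of_isPGroup_ne_bot (h.J_pg.to_le (oc_le _)) (oc_ne_bot h.J_pg h.J_ne_bot)
    have h6 : 0 < Nat.card (omegaCenterOf (J T)) := Nat.card_pos
    omega
  have hY := z2 (ah.solv L hL) hc hT h2 hW hd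
  have nW : T ≤ normalizer (W : Set G) := hY ▸ hTL.trans (MSS.self_le_normalizer_yOf L)
  rw [hY] at hdN
  obtain ⟨x, hx, hxT⟩ := SetLike.exists_of_lt (lt_inf_normalizer S.isPGroup' (h.lt hTS))
  have hW0 : W ≠ ⊥ := fun e => by simpa [e] using hW.card
  have hNW : (S : Subgroup G) ⊓ normalizer (W : Set G) = T :=
    (h.syl_of_le (isTwoLocal_normalizer (ea_isPGroup hW.ea) hW0) (fun e => hdM (e hW.nd)) nW).eq_inf
      S.isPGroup' hTS
  have hxT' := cj_eq_of_mem_normalizer hx.2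
  have hNV : (S : Subgroup G) ⊓ normalizer (cj x W : Set G) = T := by
    rw [← cj_normalizer, ← cj_eq_of_mem hx.1, ← cj_inf, hNW, hxT']
  have hV := hW.cj_of_mem (normalizer_le_normalizer_J T hx.2)
  have hne : W ≠ cj x W := fun e => hxT (hNW ▸ ⟨hx.1, cj_eq_self_iff.1 e.symm⟩)
  have sW : ∀ L, IsTwoLocal L → T ≤ L → d ∈ L → IsSylowIn 2 T L :=
    fun L hL hTL hdL => h.syl_of_le hL (fun e => hdM (e hdL)) hTL
  obtain ⟨k1, k2, k3⟩ := z2_pair ah h.pg h2 hW hV nW (hNV ▸ inf_le_right) hdN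
    (by rw [← cj_centralizer, ← hxT', ← cj_inf, ← cj_normalizer]; exact conj_mem_cj.2 hdN) hne sW
  refine ⟨S, W, _, d, _, ah, hTS, hW, hV, hne, k1, k2, k3, nW, hNV ▸ inf_le_right, sW,
    fun L hL hTL hdL => h.syl_of_le hL (fun e => hdM ?_) hTL⟩
  simpa [mul_assoc] using M.mul_mem (M.mul_mem (M.inv_mem (h.S_le hx.1)) (e hdL)) (h.S_le hx.1)

/-- There is no configuration `D8`. -/
def NoD8 (G : Type*) [Group G] : Prop :=
  ∀ (S : Sylow 2 G) (T W V : Subgroup G) (d d' : G), ¬ D8 S T W V d d'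

theorem t0' (ah : AH G) (hO : pCore 2 G = ⊥) (hz : Z48 G) (hr : NoD8 G) (hM : Over S M)
    (h : ∀ L, Over S L → L ≤ M) : SE 2 M := by
  have uq : ∀ D : Subgroup G, IsPGroup 2 D → D ≠ ⊥ → (S : Subgroup G) ≤ normalizer (D : Set G) →
      normalizer (D : Set G) ≤ M := fun D hD h0 hS =>
    h _ ⟨hS, core_ne_bot_of_twoLocal (isTwoLocal_normalizer hD h0)⟩
  have hL : IsTwoLocal M := ⟨_, isPGroup_pCoreOf M, hM.2, le_antisymm (le_normalizer_pCoreOf M)
    (uq _ (isPGroup_pCoreOf M) hM.2 (hM.1.trans (le_normalizer_pCoreOf M)))⟩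
  by_contra hse
  obtain ⟨T, hT⟩ := exists_mem_max (M := M) (Set.nonempty_iff_ne_empty.2 fun e =>
    hse ((se_iff_strad hO hL).2 e))
  obtain ⟨S', W, V, d, d', h⟩ := Uq.d8 ⟨uq, hM.1, hT⟩ ah hz
  exact hr _ _ _ _ _ _ h

theorem MaxY.caseC' (h : MaxY S Y) (hz : Z48 G)
    (h4 : 4 ≤ Nat.card (omegaCenterOf (J (S : Subgroup G))))
    (t0 : ¬ ∀ L, Over S L → L ≤ normalizer (Y : Set G)) : ∃ H, CaseC S Y H := by
  obtain ⟨D, h1, h2, h3, h5⟩ := hz S (fun _ => True) S.isPGroup' (fun _ _ _ _ => trivial)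
    (fun _ _ L _ hJ _ => by
      obtain ⟨U, h1, h2⟩ := exists_isSylowIn_ge (S.isPGroup'.to_le (J_le _)) hJ
      exact ⟨U, h1, J_eq_of_sylowIn (isSylowIn_top S) h1.isPGroup le_top h2⟩) h4
  have h6 := h.up_sup (over_normalizer h1 h2 ((le_normalizer_J _).trans h3))
    (h.ffh.je_le h.syl (inf_le_right.trans h3) fun W d e _ _ _ => h5 W d e trivial)
  push Not at t0
  obtain ⟨H, hH⟩ := exists_minimal_of_wellFoundedLT
    (fun L : Subgroup G => Over S L ∧ ¬ L ≤ normalizer (Y : Set G)) t0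
  refine ⟨H, h, h3.trans h6, fun W d e => h6 (h5 W d e trivial), hH.1.1, hH.1.2,
    fun L h7 h8 => by_contra fun h9 => h8.not_ge (hH.2 ⟨⟨h7, fun e => hH.1.1.2 ?_⟩, h9⟩ h8.le)⟩
  exact eq_bot_iff.2 (e ▸ MSS.pCoreOf_le_pCoreOf_of_le
    ((MSS.pCoreOf_le_of_isSylowIn hH.1.1.syl).trans h7) h8.le)

theorem ZTwo.uniq' (h : ZTwo S z) (hr : NoD8 G) (h1 : JCd S W d) (h2 : JCd S V d')
    (h3 : (S : Subgroup G) ≤ normalizer (W : Set G)) (h4 : (S : Subgroup G) ≤ normalizer (V : Set G))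
    (h5 : d ∈ normalizer (((S : Subgroup G) ⊓ centralizer (W : Set G) : Subgroup G) : Set G))
    (h6 : d' ∈ normalizer (((S : Subgroup G) ⊓ centralizer (V : Set G) : Subgroup G) : Set G)) :
    W = V := by
  by_contra hne
  obtain ⟨k1, k2, k3⟩ := z2_pair h.ah S.isPGroup' h.card h1 h2 h3 h4 h5 h6 hne
    fun L _ e _ => isSylowIn_of_le S e
  exact hr S S W V d d' ⟨h.ah, le_rfl, h1, h2, hne, k1, k2, k3, h3, h4,
    fun L _ e _ => isSylowIn_of_le S e, fun L _ e _ => isSylowIn_of_le S e⟩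

theorem ZTwo.nat' (h : ZTwo S z) (hr : NoD8 G) (hY : MaxY S Y)
    (t0 : ∀ M : Subgroup G, Over S M → ¬ ∀ L, Over S L → L ≤ M) : NatG S z Y := by
  have h1 : ¬ normalizer (Y : Set G) ≤ centralizer {z} := fun e => t0 _ h.ovr fun L hL =>
    (h.dich hL).resolve_right fun ⟨d, _, h2, _⟩ => by
      have h3 := hY.max L hL
      have h4 := (h.dich' hY.overM).resolve_right fun ⟨_, e1, _, _, e2⟩ => e2 (e e1)
      rw [hY.eq] at h4
      rw [h2.card, h4, card_zpowers_two (oc_sq h.mem) h.ne] at h3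
      omega
  obtain ⟨d, h2, h3, h4, h5⟩ := (h.dich hY.overM).resolve_left h1
  rw [hY.eq] at h3 h4
  have hu : ∀ V : Subgroup G, IsElementaryAbelian 2 V → Nat.card V = 4 → V ≤ S →
      (S : Subgroup G) ≤ normalizer (V : Set G) → ¬ normalizer (V : Set G) ≤ centralizer {z} →
      V = Y := fun V e1 e2 e3 e4 e5 =>
    let ⟨_, e6, e7⟩ := h.four e1 e2 e3 e4 e5
    h.uniq' hr e6 h3 e4 hY.le e7 h4
  refine ⟨h.ah, h.ne, h.oc_eq, hY.ea, h3.card, hY.Z_le h.mem, hY.YS, hY.le, h1,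
    fun e => t0 _ hY.overM fun L hL => ?_, fun D e1 e2 e3 => hY.up e1 e2 (inf_le_left.trans e3), hu⟩
  rcases h.dich hL with e1 | ⟨d', -, e1, -, e2⟩
  · exact e1.trans e
  · rw [← hu _ e1.ea e1.card (hL.ffh h.ah).VT (hL.1.trans (MSS.self_le_normalizer_yOf L))
      fun e3 => e2 (e3 e1.nd)]
    exact MSS.self_le_normalizer_yOf L

/-- The trichotomy. -/
theorem tri (ah : AH G) (hO : pCore 2 G = ⊥) (hz : Z48 G) (hr : NoD8 G) (S : Sylow 2 G) :
    (∃ M : Subgroup G, Over S M ∧ SE 2 M) ∨ ∃ z Y, NatG S z Y := by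
  refine or_iff_not_imp_left.2 fun hn => ?_
  have t0 : ∀ M : Subgroup G, Over S M → ¬ ∀ L, Over S L → L ≤ M :=
    fun M hM h => hn ⟨M, hM, t0' ah hO hz hr hM h⟩
  obtain ⟨Y, hY⟩ := exists_maxY ah S
  by_cases h4 : 4 ≤ Nat.card (omegaCenterOf (J (S : Subgroup G)))
  · obtain ⟨H, h⟩ := hY.caseC' hz h4 (t0 _ hY.overM)
    obtain ⟨z, hz⟩ := h.natG (h.short h.tall)
    exact ⟨z, Y, hz⟩
  · obtain ⟨z, h1, h2⟩ := (Subgroup.bot_or_exists_ne_one _).resolve_left hY.Z_ne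
    refine ⟨z, Y, ZTwo.nat' ⟨ah, ?_, h1, h2⟩ hr hY t0⟩
    have h5 := dvd_card_of_isPGroup_ne_bot (ea_isPGroup (ea_oc (J (S : Subgroup G))))
      fun e => h2 (mem_bot.1 (e ▸ oc_le_oc_J _ h1))
    have h6 : 0 < Nat.card (omegaCenterOf (J (S : Subgroup G))) := Nat.card_pos
    omega

namespace D8

variable (h : D8 S T W V d d')
include h

omit [Finite G] in
theorem symm : D8 S T V W d' d :=
  ⟨h.ah, h.le, h.jV, h.jW, h.ne.symm, by rw [h.eq, sup_comm], h.card,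
    fun e => h.nc (le_centralizer_iff.1 e), h.nV, h.nW, h.sV, h.sW⟩

omit [Finite G] in
theorem W_le : W ≤ T := h.eq ▸ le_sup_left

theorem loc : IsTwoLocal (normalizer (W : Set G)) :=
  isTwoLocal_normalizer (ea_isPGroup h.jW.ea) h.jW.fd.ne_bot

theorem inf_cent : T ⊓ centralizer (W : Set G) = W := by
  have h2 : T ⊓ centralizer (W : Set G) < T :=
    inf_lt_left.2 fun e => h.symm.nc (h.symm.W_le.trans e)
  have h3 := card_lt_of_lt h2
  obtain ⟨k, hk⟩ := card_dvd_of_le h2.le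
  refine (eq_of_le_of_card_ge (le_inf h.W_le (ea_le_centralizer h.jW.ea)) ?_).symm
  rw [h.card] at h3 hk
  rw [h.jW.card]
  rcases k with _ | _ | k <;> nlinarith

theorem core_eq (hL : IsTwoLocal L) (hT : T ≤ L) (hd : d ∈ L) (hn : L ≤ normalizer (W : Set G)) :
    pCoreOf 2 L = W := by
  have hs := h.sW L hL hT hd
  refine le_antisymm (h.inf_cent ▸ le_inf (pCoreOf_le_sylowIn hs) ?_)
    (MSS.le_pCoreOf (h.W_le.trans hT) hn (ea_isPGroup h.jW.ea))
  exact h.jW.fd.le_cent ((MSS.pCoreOf_le _).trans hn)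
    (MSS.resOf_le_of_isPGroup (MSS.isPGroup_pCoreOf _) _) (MSS.self_le_normalizer_pCoreOf _ hd)

theorem cent_eq : centralizer (W : Set G) = W := by
  have := h.ah.cent_le h.loc
  rw [h.core_eq h.loc h.nW h.jW.nd le_rfl] at this
  exact le_antisymm this (ea_le_centralizer h.jW.ea)

theorem card_N : Nat.card (normalizer (W : Set G)) = 24 := by
  obtain ⟨a, ha, hc⟩ := SetLike.not_le_iff_exists.1 h.symm.nc
  rw [h.jW.fd.card_eq_six le_rfl h.jW.nd (h.nW (h.symm.W_le ha)) (ea_sq h.jV.ea ha) hc,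
    inf_eq_right.2 (centralizer_le_normalizer _), h.cent_eq, h.jW.card]

theorem max : IsMaximalTwoLocal (normalizer (W : Set G)) := by
  refine ⟨h.loc, fun L hL hle => le_antisymm ?_ hle⟩
  have hs := h.sW L hL (h.nW.trans hle) (hle h.jW.nd)
  have h1 : pCoreOf 2 L ≤ W := h.core_eq h.loc h.nW h.jW.nd le_rfl ▸
    MSS.le_pCoreOf ((pCoreOf_le_sylowIn hs).trans h.nW)
      (hle.trans (MSS.self_le_normalizer_pCoreOf _)) (MSS.isPGroup_pCoreOf _)
  obtain ⟨w, hw, w1⟩ := (Subgroup.bot_or_exists_ne_one _).resolve_left (core_ne_bot_of_twoLocal hL)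
  rw [← le_antisymm h1 (h.jW.fd.le_of_mem (h1 hw) w1
    (MSS.self_le_normalizer_pCoreOf _ (hle h.jW.nd)) hw)]
  exact MSS.self_le_normalizer_pCoreOf _

theorem s4 : Nonempty (normalizer (W : Set G) ≃* Equiv.Perm (Fin 4)) := by
  refine Cfsg.Agent.S1012.result h.card_N fun g hg => ?_
  have h6 : orderOf (g : G) = 6 := by rw [orderOf_coe, hg]
  have o2 : orderOf ((g : G) ^ 2) = 3 := by rw [orderOf_pow' _ two_ne_zero, h6]; rfl
  have o3 : orderOf ((g : G) ^ 3) = 2 := by rw [orderOf_pow' _ three_ne_zero, h6]; rfl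
  have n2 : (g : G) ^ 2 ∉ centralizer (W : Set G) := fun e => by
    have := orderOf_dvd_natCard _ (h.cent_eq ▸ e)
    rw [o2, h.jW.card] at this
    omega
  have f : FD W ((g : G) ^ 2) := ⟨h.jW.ea, h.jW.card, o2 ▸ by decide, pow_mem g.2 2, n2⟩
  have hc : (g : G) ^ 3 ∈ centralizer (W : Set G) := zpowers_le.1 (f.le_cent
    (zpowers_le.2 (pow_mem g.2 3)) (MSS.resOf_le_of_isPGroup (isPGroup_zpowers_of_orderOf_eq o3) _)
    (centralizer_le_normalizer_zpowers _ (mem_centralizer_singleton_iff.2 (by group))))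
  have := f.eq_one (h.cent_eq ▸ hc) (by group)
  rw [this, orderOf_one] at o3
  omega

theorem ne_N : normalizer (W : Set G) ≠ normalizer (V : Set G) := fun e => h.ne (by
  rw [← h.core_eq h.loc h.nW h.jW.nd le_rfl, e,
    h.symm.core_eq h.symm.loc h.nV h.jV.nd le_rfl])

theorem card_inf :
    Nat.card (normalizer (W : Set G) ⊓ normalizer (V : Set G) : Subgroup G) = 8 := by
  have h1 := card_dvd_of_le (le_inf h.nW h.nV)
  have h2 : normalizer (W : Set G) ⊓ normalizer (V : Set G) < normalizer (W : Set G) :=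
    inf_lt_left.2 fun e => h.ne_N (h.max.2 _ h.symm.loc e).symm
  have h3 := card_lt_of_lt h2
  have h4 := card_dvd_of_le h2.le
  rw [h.card_N] at h3 h4
  rw [h.card] at h1
  generalize Nat.card (normalizer (W : Set G) ⊓ normalizer (V : Set G) : Subgroup G) = n at *
  obtain ⟨k, rfl⟩ := h1
  have : k < 3 := by omega
  interval_cases k <;> simp_all

end D8

namespace NatG

variable (h : NatG S z Y)
include h

theorem z_mem : z ∈ omegaCenterOf (S : Subgroup G) := h.oc ▸ mem_zpowers z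

theorem S_le : (S : Subgroup G) ≤ centralizer {z} := fun s hs =>
  mem_centralizer_singleton_iff.2 (oc_le_centralizer _ h.z_mem s hs)

theorem exists_fd : ∃ d, FD Y d := by
  by_contra hc
  refine h.act (MSS.resOf_sup_isSylowIn (isSylowIn_of_le S h.norm) ▸ sup_le ((MSS.resOf_le_iff.2
    fun g hg ho => by_contra fun e => hc ⟨g, h.ea, h.card, Nat.coprime_two_right.1 ho, hg, e⟩).trans
      (centralizer_le (Set.singleton_subset_iff.2 h.mem))) h.S_le)

theorem not_le : ¬ (S : Subgroup G) ≤ centralizer (Y : Set G) := fun e => by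
  have h1 : Y ≤ zpowers z := h.oc ▸ fun y hy =>
    mem_oc.2 ⟨h.le hy, fun s hs => (e hs y hy).symm, ea_sq h.ea hy⟩
  have h2 := Subgroup.card_le_of_le h1
  rw [h.card, card_zpowers_two (oc_sq h.z_mem) h.ne] at h2
  omega

end NatG

end Cfsg.Lib.Ngrp
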