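import Cfsg.Agent.Ngrp.Tri
import Cfsg.Agent.Ngrp.Theta

/-!
# The trichotomy in `O²(G)` when `C(Ω₁ Z(S)) ≤ N(S)`
-/

set_option autoImplicit false

namespace Cfsg.Lib.Ngrp
open Subgroup Cfsg.Lib.Trans Cfsg.Lib.Local Cfsg.Lib.Local.JC

variable {G : Type*} [Group G] [Finite G] {H : Subgroup G}

open scoped IsMulCommutative in
/-- The barycentre of an orbit of odd length. -/
theorem exists_fixed_of_odd {C B Q : Subgroup G} (hB : IsElementaryAbelian 2 B)
    (hC : C ≤ normalizer (B : Set G)) {t : G} (ht : t ∈ B) (h : ∀ c ∈ C, t * (c * t * c⁻¹) ∈ Q)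
    (ho : ¬ 2 ∣ (C ⊓ C1 t).relIndex C) : ∃ u ∈ B, t * u ∈ Q ∧ u ∈ centralizer (C : Set G) := by
  classical
  have := hB.1
  let _ : MulDistribMulAction C B :=
    MulDistribMulAction.compHom B (B.normalizerMonoidHom.comp (inclusion hC))
  have hs : ∀ (c : C) (b : B), ((c • b : B) : G) = c * b * (c : G)⁻¹ := fun _ _ => rfl
  have : Fintype (MulAction.orbit C (⟨t, ht⟩ : B)) := Fintype.ofFinite _
  refine ⟨(∏ x : MulAction.orbit C (⟨t, ht⟩ : B), (x : B) : B), Subtype.coe_prop _, ?_,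
    fun c hc => ?_⟩
  · have h1 : (∏ x : MulAction.orbit C (⟨t, ht⟩ : B), ((⟨t, ht⟩ : B) * x)) ∈ Q.subgroupOf B :=
      prod_mem fun x _ => by
        obtain ⟨_, c, rfl⟩ := x
        exact h c c.2
    have h2 : (MulAction.stabilizer C (⟨t, ht⟩ : B)) = (C ⊓ C1 t).subgroupOf C := by
      ext c
      rw [MulAction.mem_stabilizer_iff, Subtype.ext_iff, hs, mem_subgroupOf, mem_inf, mem_C1,
        mul_inv_eq_iff_eq_mul]
      exact ⟨fun e => ⟨c.2, e⟩, fun e => e.2⟩
    have h3 := MulAction.index_stabilizer C (⟨t, ht⟩ : B)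
    rw [h2, ← Nat.card_coe_set_eq, Nat.card_eq_fintype_card] at h3
    obtain ⟨k, hk⟩ := Nat.odd_iff.2 (Nat.two_dvd_ne_zero.1 ho)
    rw [Finset.prod_mul_distrib, Finset.prod_const, Finset.card_univ, ← h3, ← relIndex, hk, pow_succ,
      pow_mul, show (⟨t, ht⟩ : B) ^ 2 = 1 from Subtype.ext (hB.2 t ht), one_pow, one_mul] at h1
    exact h1
  · rw [← mul_inv_eq_iff_eq_mul, ← hs ⟨c, hc⟩, Finset.smul_prod']
    exact congrArg Subtype.val (Equiv.prod_comp (MulAction.toPerm (⟨c, hc⟩ : C))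
      fun x : MulAction.orbit C (⟨t, ht⟩ : B) => (x : B))

omit [Finite G] in
theorem map_normalizer_subtype (D : Subgroup H) : (normalizer (D : Set H)).map H.subtype =
    H ⊓ normalizer ((D.map H.subtype : Subgroup G) : Set G) := by
  conv_lhs => rw [← comap_map_eq_self_of_injective H.subtype_injective D]
  rw [← subgroupOf, ← subgroupOf_normalizer_eq (map_subtype_le D), subgroupOf_map_subtype, inf_comm]

omit [Finite G] in
theorem map_C1_subtype (z : H) : (C1 z).map H.subtype = H ⊓ C1 (z : G) := by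
  ext x
  simp only [mem_map, mem_inf, mem_C1]
  exact ⟨fun ⟨y, h, e⟩ => e ▸ ⟨y.2, congrArg Subtype.val h⟩, fun h => ⟨⟨x, h.1⟩, Subtype.ext h.2, rfl⟩⟩

theorem charP_inf_of_type {K D : Subgroup G} [H.Normal] (hK : IsCharacteristicTwoType K)
    (hHK : H ≤ K) (hD : IsPGroup 2 D) (h0 : D ≠ ⊥) (hDH : D ≤ H) :
    CharP 2 (H ⊓ normalizer (D : Set G)) := by
  have h1 := (charP_map_iff _ K.subtype_injective).2 (charP_normalizer_of_type hK
    (isPGroup_subgroupOf hD K) fun e => h0 (by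
      rw [← map_subgroupOf_eq_of_le (hDH.trans hHK), e, Subgroup.map_bot]))
  rw [map_normalizer_subtype, map_subgroupOf_eq_of_le (hDH.trans hHK)] at h1
  exact h1.of_normal (inf_le_inf_right _ hHK) (Solv.le_normalizer_inf
    (by rw [normalizer_eq_top H]; exact le_top) (inf_le_right.trans le_normalizer))

theorem ah_of_charP (he : Even (Nat.card H))
    (hc : ∀ D : Subgroup G, IsPGroup 2 D → D ≠ ⊥ → D ≤ H → CharP 2 (H ⊓ normalizer (D : Set G)))
    (hs : ∀ N : Subgroup G, IsTwoLocal N → Group.IsSolvable N) : AH H := by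
  have h0 : ∀ D : Subgroup H, D ≠ ⊥ → D.map H.subtype ≠ ⊥ := fun D h e =>
    h ((map_eq_bot_iff_of_injective _ H.subtype_injective).1 e)
  refine ⟨⟨he, fun D h1 h2 => charP_iff.1 ((charP_map_iff _ H.subtype_injective).1 ?_)⟩, ?_⟩
  · rw [map_normalizer_subtype]
    exact hc _ (h1.map _) (h0 D h2) (map_subtype_le D)
  · rintro _ ⟨D, h1, h2, rfl⟩
    have := hs _ ⟨_, h1.map H.subtype, h0 D h2, rfl⟩
    have h3 := (map_normalizer_subtype D).le.trans inf_le_right
    exact Group.isSolvable_of_isSolvable_injective (f := (inclusion h3).comp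
      ((normalizer (D : Set H)).equivMapOfInjective _ H.subtype_injective).toMonoidHom)
      ((inclusion_injective h3).comp (MulEquiv.injective _))

theorem index_ne_two_res (X : Subgroup (pResidual 2 G)) : X.index ≠ 2 := fun h => by
  have h1 : pResidual 2 G ≤ X.map (pResidual 2 G).subtype := (closure_le _).2 fun g hg =>
    ⟨⟨g, subset_closure hg⟩, mem_of_sq_mem_of_odd (by
      rw [← orderOf_coe]; exact Nat.coprime_two_right.1 hg) (by
        rw [← sq]; exact sq_mem_of_index_two h _), rfl⟩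
  have h2 : X = ⊤ := eq_top_iff.2 fun x _ => by
    obtain ⟨y, hy, e⟩ := h1 x.2
    exact Subtype.ext e ▸ hy
  simp [h2] at h

theorem not_natG [H.Normal] (hZ : ∀ S : Sylow 2 G,
      centralizer (omegaCenterOf (S : Subgroup G) : Set G) ≤ normalizer ((S : Subgroup G) : Set G))
    {R : Sylow 2 H} {z : H} {Y : Subgroup H} (h : NatG R z Y) : False := by
  obtain ⟨S, hS⟩ := (isSylowIn_map_subtype R).exists_sylow_inf
  have hc : CharP 2 (H ⊓ C1 (z : G)) := map_C1_subtype z ▸
    (charP_map_iff _ H.subtype_injective).2 (h.ah.charP (twoLocal_cent (oc_sq h.z_mem) h.ne))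
  have hR : (S : Subgroup G) ⊓ H ≤ H ⊓ C1 (z : G) := by
    rw [hS, ← map_C1_subtype]
    exact map_mono h.S_le
  have hs : IsSylowIn 2 ((S : Subgroup G) ⊓ H) (H ⊓ C1 (z : G)) :=
    (isSylowIn_inf_of_normal S H).mono hR inf_le_left
  have hzS : (z : G) ∈ (S : Subgroup G) := (hS.ge ⟨z, oc_le _ h.z_mem, rfl⟩).1
  have hQ := pCoreOf_le_sylowIn hs
  have key : H ⊓ C1 (z : G) ≤ centralizer (omegaCenterOf (S : Subgroup G) : Set G) := by
    refine le_centralizer_iff.2 fun t ht => ?_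
    have htQ : t ∈ centralizer (pCoreOf 2 (H ⊓ C1 (z : G)) : Set G) :=
      centralizer_le (hQ.trans inf_le_left) (oc_le_centralizer _ ht)
    have h1 : ∀ c ∈ H ⊓ C1 (z : G),
        t * (c * t * c⁻¹) ∈ omegaCenterOf (pCoreOf 2 (H ⊓ C1 (z : G))) := fun c hc' => by
      have h2 := mul_mem htQ (mem_normalizer_conj (normalizer_le_normalizer_centralizer _
        (le_normalizer_pCoreOf _ hc')) htQ)
      have htz : t ∈ C1 (z : G) := mem_C1.2 (oc_le_centralizer _ ht _ hzS).symm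
      have h3 := hc ⟨⟨?_, mul_mem htz (mem_normalizer_conj (le_normalizer hc'.2) htz)⟩, h2⟩
      · refine mem_oc.2 ⟨h3, h2, ?_⟩
        have h4 := htQ _ h3
        calc _ = t * (c * t * c⁻¹) * t * (c * t * c⁻¹) := by group
          _ = t * t * (c * (t * t) * c⁻¹) := by rw [h4]; group
          _ = 1 := by rw [oc_sq ht]; group
      · rw [show t * (c * t * c⁻¹) = t * c * t⁻¹ * c⁻¹ by rw [inv_eq_of_sq (oc_sq ht)]; group]
        exact H.mul_mem (‹H.Normal›.conj_mem _ hc'.1 t) (H.inv_mem hc'.1)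
    have hn := (le_normalizer_pCoreOf (p := 2) (H ⊓ C1 (z : G))).trans (normalizer_le_normalizer_oc _)
    obtain ⟨u, -, h2, h3⟩ := exists_fixed_of_odd (C := H ⊓ C1 (z : G))
      (ea_sup (ea_zpowers (oc_sq ht)) (ea_oc _) (le_centralizer_iff.2 (zpowers_le.2
        (centralizer_le (oc_le _) htQ))))
      (fun c hc' => mem_normalizer_of_cj_le (by
        rw [cj_sup, cj_zpowers, cj_eq_of_mem_normalizer (hn hc')]
        refine sup_le (zpowers_le.2 ?_) le_sup_right
        simpa [← mul_assoc, oc_sq ht] using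
          mul_mem (mem_sup_left (mem_zpowers t)) (mem_sup_right (h1 c hc'))))
      (mem_sup_left (mem_zpowers t)) h1 (hs.not_dvd_relIndex_of_le (le_inf hR fun s hs' =>
        mem_C1.2 (oc_le_centralizer _ ht s hs'.1)))
    have h4 : t * u ∈ omegaCenterOf ((S : Subgroup G) ⊓ H) := mem_oc.2 ⟨hQ (oc_le _ h2),
      mul_mem (centralizer_le (inf_le_left : (S : Subgroup G) ⊓ H ≤ _) (oc_le_centralizer _ ht))
        (centralizer_le hR h3), oc_sq h2⟩
    rw [hS, ← map_oc _ H.subtype_injective, h.oc, MonoidHom.map_zpowers] at h4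
    have h5 : t * u ∈ centralizer ((H ⊓ C1 (z : G) : Subgroup G) : Set G) := by
      refine (zpowers_le.2 ?_ : zpowers _ ≤ _) h4
      exact fun c hc' => mem_C1.1 hc'.2
    simpa using mul_mem h5 (inv_mem h3)
  refine h.notn fun c hc => ?_
  have h1 : c ∈ normalizer ((R : Subgroup H) : Set H) := by
    have h2 : (c : G) ∈ (normalizer ((R : Subgroup H) : Set H)).map H.subtype := by
      rw [map_normalizer_subtype, ← hS]
      exact ⟨c.2, inf_normalizer_le_normalizer_inf ⟨hZ S (key ⟨c.2, mem_C1.2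
        (congrArg Subtype.val (mem_C1.1 hc))⟩), by rw [normalizer_eq_top]; trivial⟩⟩
    obtain ⟨y, hy, e⟩ := h2
    exact Subtype.ext e ▸ hy
  have h2 := cj_eq_of_mem_normalizer h1
  refine cj_eq_self_iff.1 (h.uniq _ (ea_cj h.ea c) (by rw [card_cj, h.card]) (h2 ▸ cj_mono c h.le)
    (by rw [← cj_normalizer, ← h2]; exact cj_mono c h.norm) fun e => h.act ?_)
  rwa [← cj_normalizer, ← cj_eq_of_mem hc, cj_le_cj] at e

/-- In `O²(G)` there is a strongly embedded subgroup or a configuration `D8`. -/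
theorem zn_dich (hO : pCore 2 G = ⊥) (hZ : ∀ S : Sylow 2 G,
      centralizer (omegaCenterOf (S : Subgroup G) : Set G) ≤ normalizer ((S : Subgroup G) : Set G))
    (ah : AH (pResidual 2 G)) : (∃ M : Subgroup (pResidual 2 G), SE 2 M) ∨
      ∃ (S : Sylow 2 (pResidual 2 G)) (T W V : Subgroup (pResidual 2 G)) (d d' : pResidual 2 G),
        D8 S T W V d d' := by
  have hn : (pResidual 2 G).Normal := inferInstance
  refine or_iff_not_imp_right.2 fun hr => ?_
  obtain ⟨S⟩ : Nonempty (Sylow 2 (pResidual 2 G)) := inferInstance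
  refine (tri ah (pCoreOf_eq_bot_iff.1 (eq_bot_iff.2 ?_)) (z48_of_index ah index_ne_two_res)
    (fun S T W V d d' h => hr ⟨S, T, W, V, d, d', h⟩) S).elim (fun ⟨M, h⟩ => ⟨M, h.2⟩)
    fun ⟨z, Y, h⟩ => (not_natG hZ h).elim
  rw [← hO, ← pCoreOf_top]
  exact pCoreOf_le_of_normal le_top (by rw [normalizer_eq_top])

/-- A strongly embedded subgroup of a normal subgroup yields one of the whole group. -/
theorem se_up [H.Normal] {M₀ : Subgroup H} (h : SE 2 M₀)
    (hc : ∀ t : G, orderOf t = 2 → CharP 2 (H ⊓ C1 t)) : ∃ M : Subgroup G, SE 2 M := by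
  obtain ⟨R₀, hR₀⟩ := h.exists_sylow_le
  have hR := isSylowIn_map_subtype R₀
  obtain ⟨S, hS⟩ := hR.exists_sylow_inf
  set R := (R₀ : Subgroup H).map H.subtype
  let K : Subgroup G := ⨅ n : normalizer (R : Set G), cj n (M₀.map H.subtype)
  have mK : ∀ x, x ∈ K ↔ ∀ n ∈ normalizer (R : Set G), n⁻¹ * x * n ∈ M₀.map H.subtype :=
    fun x => by simp only [K, mem_iInf, mem_cj, Subtype.forall]
  have hRK : R ≤ K := fun x hx => (mK x).2 fun n hn => map_mono hR₀ (mem_normalizer_conj' hn hx)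
  have hK : ∀ x ∈ K, orderOf x = 2 → ∀ g ∈ H, g * x * g⁻¹ ∈ K → g ∈ K := fun x hx h2 g hg hgx =>
    (mK g).2 fun n hn => by
      obtain ⟨y, hy, e⟩ := (mK x).1 hx n hn
      obtain ⟨w, hw, e'⟩ := (mK _).1 hgx n hn
      refine ⟨⟨_, ‹H.Normal›.conj_mem' g hg n⟩, h.mem_of_conj y hy (by
        rw [← orderOf_coe, show (y : G) = _ from e, orderOf_conj', h2]) _ ?_, rfl⟩
      refine (congrArg (· ∈ M₀) (Subtype.ext ?_ : w = _)).mp hw
      rw [show (w : G) = _ from e']
      simp only [coe_mul, coe_inv, show (y : G) = _ from e]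
      group
  have hN : normalizer (R : Set G) ≤ normalizer (K : Set G) := fun n hn =>
    mem_normalizer_of_cj_le (cj_le_iff.2 fun x hx => (mK _).2 fun m hm => by
      simpa [mul_assoc] using (mK x).1 hx _ (mul_mem (inv_mem hn) hm))
  have h0 : (S : Subgroup G) ⊓ H ≠ ⊥ := fun e => hR.eq_bot_iff.1 (hS ▸ e)
    (h.dvd.trans (card_subgroup_dvd_card M₀))
  have hNS : normalizer ((S : Subgroup G) : Set G) ≤ normalizer (R : Set G) := fun n hn =>
    hS ▸ inf_normalizer_le_normalizer_inf ⟨hn, by rw [normalizer_eq_top H]; trivial⟩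
  obtain ⟨z, hz, z1⟩ := (Subgroup.bot_or_exists_ne_one _).resolve_left
    (MSS.inf_centralizer_ne_bot_of_resOf_le (ea_isPGroup (ea_oc R)) (le_normalizer.trans
      (hNS.trans (normalizer_le_normalizer_oc R))) (MSS.resOf_le_of_isPGroup S.isPGroup' _)
      (oc_ne_bot hR.isPGroup (hS ▸ h0)))
  have z2 := orderOf_two_of_ea (ea_oc R) hz.1 z1
  have zR := oc_le R hz.1
  refine ⟨normalizer (K : Set G), SE.of_centralizer_normalizer (fun e => h.ne_top ?_) S
    (hNS.trans hN) fun t ht t2 g hg => ?_⟩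
  · refine eq_top_iff.2 fun g _ => ?_
    obtain ⟨y, hy, e⟩ := (mK _).1 (hK z (hRK zR) z2 g g.2
      (mem_normalizer_conj (e ▸ mem_top _) (hRK zR))) 1 (one_mem _)
    exact (Subtype.ext (by simpa using e) : y = g) ▸ hy
  · have hzC : z ∈ H ⊓ C1 t := ⟨hR.le zR, mem_C1.2 (hz.2 t ht).symm⟩
    have hP := isPGroup_sup' (isPGroup_pCoreOf (p := 2) (H ⊓ C1 t))
      (isPGroup_zpowers_of_orderOf_eq z2) (zpowers_le.2 (le_normalizer_pCoreOf _ hzC))
    have hH : pCoreOf 2 (H ⊓ C1 t) ⊔ zpowers z ≤ H :=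
      sup_le ((pCoreOf_le _).trans inf_le_left) (zpowers_le.2 hzC.1)
    obtain ⟨y, hy, y2, hy'⟩ := exists_central_orderOf_eq hP fun e =>
      z1 (mem_bot.1 (e ▸ mem_sup_right (mem_zpowers z)))
    have hyK := hK z (hRK zR) z2 y (hH hy) (by
      rw [hy' z (mem_sup_right (mem_zpowers z)), mul_inv_cancel_right]; exact hRK zR)
    have hD : pCoreOf 2 (H ⊓ C1 t) ≤ K := fun x hx => hK y hyK y2 x (hH (mem_sup_left hx)) (by
      rw [← hy' x (mem_sup_left hx), mul_inv_cancel_right]; exact hyK)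
    obtain ⟨x, hx, x2⟩ := exists_orderOf_eq_of_isPGroup (isPGroup_pCoreOf (p := 2) (H ⊓ C1 t))
      ((hc t t2).pCoreOf_ne_bot fun e => z1 (mem_bot.1 (e ▸ hzC)))
    obtain ⟨k, hk, n, hn, rfl⟩ := hR.frattini (g := g) (by rw [normalizer_eq_top H]; trivial)
    refine mul_mem (le_normalizer (hK _ (mem_normalizer_conj (hN hn) (hD hx))
      (by rw [orderOf_conj, x2]) k hk ?_)) (hN hn)
    simpa [mul_assoc] using hD (mem_normalizer_conj (normalizer_le_normalizer_pCoreOf _
      (inf_normalizer_le_normalizer_inf ⟨by rw [normalizer_eq_top H]; trivial,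
        le_normalizer hg⟩)) hx)

/-- A Sylow subgroup with only one involution. -/
theorem se_C1 (hO : pCore 2 G = ⊥) (S : Sylow 2 G) {z : G} (hz : z ∈ (S : Subgroup G))
    (z2 : orderOf z = 2) (h : ∀ t ∈ (S : Subgroup G), orderOf t = 2 → t = z) : SE 2 (C1 z) := by
  refine SE.of_centralizer_normalizer (fun e => ?_) S (fun n hn => mem_C1.2 (mul_inv_eq_iff_eq_mul.1
    (h _ (mem_normalizer_conj hn hz) (by rw [orderOf_conj, z2])))) fun t ht t2 => h t ht t2 ▸ le_rfl
  have h1 := le_pCoreOf (le_top : zpowers z ≤ ⊤) (e ▸ centralizer_le_normalizer_zpowers z)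
    (isPGroup_zpowers_of_orderOf_eq z2)
  rw [pCoreOf_top, hO, zpowers_le, mem_bot] at h1
  simp [h1] at z2

end Cfsg.Lib.Ngrp
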